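import Cfsg.Agent.Lib.GLC.Elus
import Cfsg.Agent.Lib.GLC.Jordan
import Cfsg.Prelude.Def_GeometricClasses

/-!
Linear maps permuting the parts of a direct sum decomposition.
-/

set_option autoImplicit false

namespace Cfsg.Lib.GLC

open Module Polynomial LinearMap Cfsg.Lib.Symp

universe u

variable {F : Type u} {V W : Type*} [Field F] [AddCommGroup V] [Module F V] [AddCommGroup W] [Module F W]
  {f : End F V} {g : End F W} {a r s t : ℕ} {μ ν : Multiset F[X]}

theorem indep_iff_finrank [Module.Finite F V] {ι : Type*} [Fintype ι] {D : ι → Submodule F V} (h : iSup D = ⊤) :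
    iSupIndep D ↔ ∑ j, finrank F (D j) = finrank F V := by
  classical
  rw [← finrank_directSum]
  refine ⟨fun h1 => (LinearEquiv.ofBijective (DirectSum.coeLinearMap D)
    (DirectSum.isInternal_submodule_of_iSupIndep_of_iSup_eq_top h1 h)).finrank_eq, fun h1 => ?_⟩
  have h2 := range_eq_top.1 ((DirectSum.range_coeLinearMap (A := D)).trans h)
  exact DirectSum.IsInternal.submodule_iSupIndep ⟨(injective_iff_surjective_of_finrank_eq_finrank h1).2 h2, h2⟩

/-- `f` permutes the parts of a decomposition into `t` parts of dimension `a`. -/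
def Dec (f : End F V) (a t : ℕ) : Prop :=
  finrank F V = a * t ∧ ∃ (D : Fin t → Submodule F V) (σ : Equiv.Perm (Fin t)),
    (∀ j, finrank F (D j) = a) ∧ iSup D = ⊤ ∧ ∀ j, (D j).map f = D (σ j)

theorem dec_iff {n : Type} [Fintype n] [DecidableEq n] {f : End F (n → F)} (ha : 0 < a) (ht : 2 ≤ t)
    (h : Fintype.card n = a * t) : (∃ D : Fin t → Submodule F (n → F), Geo.IsMDecomposition a D ∧
    ∃ σ : Equiv.Perm (Fin t), ∀ j, (D j).map f = D (σ j)) ↔ Dec f a t :=
  ⟨fun ⟨D, h1, σ, h2⟩ => ⟨by simpa, D, σ, h1.finrank_eq, h1.iSup_eq_top, h2⟩, fun ⟨_, D, σ, h1, h2, h3⟩ =>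
    ⟨D, ⟨ht, ha, h1, (indep_iff_finrank h2).2 (by simp [h1, h, mul_comm]), h2⟩, σ, h3⟩⟩

namespace Dec

theorem of {ι : Type*} [Fintype ι] {D : ι → Submodule F V} (σ : Equiv.Perm ι) (hV : finrank F V = a * t)
    (h : ∀ j, finrank F (D j) = a) (h' : iSup D = ⊤) (h1 : ∀ j, (D j).map f = D (σ j)) (ht : Fintype.card ι = t) :
    Dec f a t :=
  let e := (Fintype.equivFinOfCardEq ht).symm
  ⟨hV, D ∘ e, e.symm.permCongr σ, fun _ => h _, (e.iSup_comp (g := D)).trans h', fun j => by simp [h1]⟩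

theorem sim (h : Dec f a t) (H : Sim f g) : Dec g a t := by
  obtain ⟨h0, D, σ, h1, h2, h3⟩ := h
  obtain ⟨e, h4⟩ := H
  refine ⟨e.finrank_eq ▸ h0, fun j => (D j).map e.toLinearMap, σ, fun j => (e.finrank_map_eq _).trans (h1 j), ?_,
    fun j => ?_⟩
  · rw [← Submodule.map_iSup, h2, Submodule.map_top, e.range]
  simp only [← h3, ← Submodule.map_comp]
  exact congrArg (Submodule.map · _) (LinearMap.ext fun v => (h4 v).symm)

theorem smul (h : Dec f a t) {c : F} (hc : c ≠ 0) : Dec (c • f) a t :=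
  let ⟨h0, D, σ, h1, h2, h3⟩ := h; ⟨h0, D, σ, h1, h2, fun j => by rw [Submodule.map_smul _ _ _ hc, h3]⟩

variable [Module.Finite F V] [Module.Finite F W]

theorem prodMap (h : Dec f a s) (h' : Dec g a t) : Dec (f.prodMap g) a (s + t) := by
  obtain ⟨h0, D, σ, h1, h2, h3⟩ := h
  obtain ⟨h4, E, τ, h5, h6, h7⟩ := h'
  refine of (D := Sum.elim (fun j => (D j).map (inl F V W)) fun j => (E j).map (inr F V W)) (σ.sumCongr τ)
    (by rw [finrank_prod, h0, h4, mul_add]) ?_ ?_ ?_ (by simp)
  · rintro (j | j)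
    · exact ((D j).equivMapOfInjective _ inl_injective).finrank_eq.symm.trans (h1 j)
    · exact ((E j).equivMapOfInjective _ inr_injective).finrank_eq.symm.trans (h5 j)
  · simp only [iSup_sum, Sum.elim_inl, Sum.elim_inr, ← Submodule.map_iSup, h2, h6,
      Submodule.map_top, sup_range_inl_inr]
  · rintro (j | j) <;> simp [← h3, ← h7, prodMap_map_prod]

end Dec

/-- Every map of type `μ` permutes a decomposition. -/
def DT (a t : ℕ) (μ : Multiset F[X]) : Prop :=
  ∀ (V : Type u) [AddCommGroup V] [Module F V] (f : End F V), Blocks f μ → Dec f a t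

namespace DT

theorem of (h : Blocks g μ) (h' : Dec g a t) : DT a t μ := fun _ _ _ _ hf => h'.sim (h.sim hf)

theorem add (h : DT a s μ) (h' : DT a t ν) : DT a (s + t) (μ + ν) := fun V _ _ f hf => by
  haveI := hf.finite
  obtain ⟨A, B, hA, hB, h1, h2, h3⟩ := hf.exists_isCompl
  exact ((h _ _ h2).prodMap (h' _ _ h3)).sim (sim_restrict_prod h1 hA hB)

theorem zero : DT a 0 (0 : Multiset F[X]) := fun V _ _ f hf => by
  haveI := hf.finite
  have h := hf.finrank_eq
  haveI := finrank_zero_iff.1 h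
  exact ⟨h, Fin.elim0, 1, (·.elim0), Subsingleton.elim _ _, (·.elim0)⟩

theorem one (h : ∀ P ∈ μ, P.coeff 0 ≠ 0) (h' : (μ.map natDegree).sum = a) : DT a 1 μ := fun V _ _ f hf =>
  ⟨by rw [hf.finrank_eq, h', mul_one], fun _ => ⊤, 1, fun _ => by rw [finrank_top, hf.finrank_eq, h'], by simp,
    fun _ => by rw [Submodule.map_top, range_eq_top.2 ((End.isUnit_iff _).1 (hf.isUnit_iff.2 h)).2]⟩

theorem nsmul (h : DT a t μ) (s : ℕ) : DT a (s * t) (s • μ) := by
  induction s with
  | zero => simpa using zero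
  | succ s ih => rw [succ_nsmul, add_mul, one_mul]; exact ih.add h

theorem cycle {c : F} (hc : c ≠ 0) (hr : 0 < r) (a : ℕ) : DT a r (.replicate a (X ^ r - C c)) := by
  obtain ⟨r, rfl⟩ : ∃ s, r = s + 1 := ⟨r - 1, by omega⟩
  set P : F[X] := X ^ (r + 1) - C c
  have hP : P.Monic := monic_X_pow_sub_C c r.succ_ne_zero
  have hd : P.natDegree = r + 1 := natDegree_X_pow_sub_C
  haveI := hP.finite_adjoinRoot
  let b := (AdjoinRoot.powerBasis' hP).basis.reindex (finCongr hd)
  have hb : ∀ j, b j = AdjoinRoot.root P ^ j.1 := fun j => by simp [b]; rfl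
  let L := fun j => piMap fun _ : Fin a => toSpanSingleton F _ (b j)
  have hL : ∀ j, Function.Injective (L j) := fun j u v e => funext fun i =>
    smul_left_injective F (b.ne_zero j) (congrFun e i)
  refine of (g := piMap fun _ : Fin a => cyc P) (by simpa using blocks_piMap fun _ : Fin a => blocks_cyc hP)
    ⟨by simp [finrank_pi_fintype, finrank_adjoinRoot, hd], fun j => range (L j), finRotate _,
      fun j => by simp [finrank_range_of_inj (hL j)], eq_top_iff.2 fun v _ => ?_, fun j => ?_⟩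
  · have : v = ∑ j, L j fun i => b.repr (v i) j := funext fun i => by simp [L]
    exact this ▸ sum_mem fun j _ => Submodule.mem_iSup_of_mem j ⟨_, rfl⟩
  have h1 : ∃ d : F, d ≠ 0 ∧ AdjoinRoot.root P * b j = d • b (finRotate _ j) := by
    refine j.lastCases ⟨c, hc, ?_⟩ fun j => ⟨1, one_ne_zero, ?_⟩
    · rw [finRotate_last, hb, hb, ← pow_succ', Fin.val_last, dvd_X_pow_sub_C_iff.1 dvd_rfl]
      rw [Algebra.algebraMap_eq_smul_one]; rfl
    · rw [hb, hb, ← pow_succ', one_smul, finRotate_apply, Fin.coeSucc_eq_succ]; rfl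
  obtain ⟨d, h2, h3⟩ := h1
  refine (range_comp _ _).symm.trans (.trans (congrArg range (LinearMap.ext fun u => funext fun i => ?_))
    (range_smul (L (finRotate _ j)) d h2))
  change AdjoinRoot.root P * (u i • b j) = d • u i • b _
  rw [mul_smul_comm, h3, smul_comm]

theorem of_le (h : ∀ P ∈ μ, P.coeff 0 ≠ 0) {k b c : ℕ} (h1 : μ.map natDegree = .replicate k 1 + .replicate b c)
    (h2 : k + b * c = a * t) (h3 : t * (a % c) ≤ k) : DT a t μ := by
  induction t generalizing μ k b with
  | zero =>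
    obtain rfl : k = 0 := by omega
    refine fun V _ _ f hf => ?_
    have h := hf.finrank_eq
    haveI := hf.finite
    rw [h1] at h
    haveI : Subsingleton V := finrank_zero_iff.1 (h.trans (by simpa using h2))
    exact zero V f blocks_zero
  | succ t ih =>
    have h4 := Nat.div_add_mod a c
    have h5 : min b (a / c) * c ≤ a / c * c := Nat.mul_le_mul_right _ (min_le_right _ _)
    have h6 := Nat.mul_le_mul_left t (Nat.mod_le a c)
    rw [add_mul] at h3
    rw [mul_add, mul_comm a] at h2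
    rw [mul_comm] at h4
    have h7 : a - min b (a / c) * c ≤ k ∧ t * (a % c) ≤ k - (a - min b (a / c) * c) := by
      rcases min_choice b (a / c) with h | h <;> rw [h] at h5 ⊢ <;> omega
    obtain ⟨ν, h8, h9⟩ := exists_map_eq_of_le (s := μ) (g := natDegree)
      (t := .replicate (a - min b (a / c) * c) 1 + .replicate (min b (a / c)) c) (h1 ▸ add_le_add
        ((Multiset.replicate_le_replicate _).2 h7.1) ((Multiset.replicate_le_replicate _).2 (min_le_left _ _)))
    obtain ⟨κ, rfl⟩ := Multiset.le_iff_exists_add.1 h8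
    refine add_comm 1 t ▸ add (one (fun P hP => h P (Multiset.mem_add.2 (.inl hP))) (by simp [h9]; omega))
      (ih (fun P hP => h P (Multiset.mem_add.2 (.inr hP))) (b := b - min b (a / c)) ?_ ?_ h7.2)
    · rw [Multiset.map_add, h9] at h1
      refine add_left_cancel (h1.trans ?_)
      rw [add_add_add_comm, ← Multiset.replicate_add, ← Multiset.replicate_add]
      congr 2 <;> omega
    · have := Nat.mul_le_mul_right c (min_le_left b (a / c))
      rw [Nat.sub_mul, mul_comm a]; omega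

theorem kummer {c : F} (hc : c ≠ 0) (hr : r.Prime) {k : ℕ} (h : k * r = a * t) :
    DT a t (.replicate k (X ^ r - C c)) := by
  rcases (Nat.Prime.dvd_mul hr).1 (Dvd.intro_left _ h) with h1 | ⟨s, rfl⟩
  · refine of_le (k := 0) (b := k) (c := r) (fun P hP => ?_) (by simp) (by omega)
      (by simp [Nat.mod_eq_zero_of_dvd h1])
    simp [Multiset.eq_of_mem_replicate hP, coeff_X_pow, hr.ne_zero.symm, hc]
  · obtain rfl : k = s * a := Nat.eq_of_mul_eq_mul_right hr.pos (by rw [h]; ring)
    simpa only [Multiset.nsmul_replicate, mul_comm r] using (cycle hc hr.pos a).nsmul s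

theorem two (h2 : (2 : F) = 0) (ha : 0 < a) {k s : ℕ} (h : k + s * 2 = a * t) :
    DT a t (jt (1 : F) (.replicate k 1 + .replicate s 2)) := by
  induction t using Nat.strong_induction_on generalizing s with | _ t ih
  rcases le_or_gt (t * (a % 2)) k with h1 | h1
  · exact of_le (Multiset.forall_mem_map_iff.2 (by simp [coeff_zero_eq_eval_zero])) (jt_map_natDegree _ _) h h1
  have h3 : a % 2 = 1 := by
    by_contra h3
    simp [show a % 2 = 0 by omega] at h1
  rw [h3, mul_one] at h1
  obtain ⟨t, rfl⟩ : ∃ u, t = u + 2 := ⟨t - 2, by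
    by_contra h4
    obtain rfl : t = 1 := by omega
    omega⟩
  obtain ⟨s, rfl⟩ : ∃ u, s = a + u := ⟨s - a, by
    rcases t with _ | t
    · omega
    obtain ⟨a, rfl⟩ : ∃ b, a = b + 1 := ⟨a - 1, by omega⟩
    have : (a + 1) * (t + 1 + 2) = a * t + 3 * a + t + 3 := by ring
    omega⟩
  have h4 := (ih t (by omega) (s := s) (by rw [mul_add] at h; omega)).add (cycle one_ne_zero two_pos a)
  have h5 : (X ^ 2 - C 1 : F[X]) = (X - C 1) ^ 2 := by
    have : (2 : F[X]) = 0 := by rw [← map_ofNat C 2, h2, C_0]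
    rw [C_1]; linear_combination (X - 1) * this
  convert h4 using 1
  simp only [jt, Multiset.map_add, Multiset.map_replicate, Multiset.replicate_add, h5]
  abel

end DT

section Orbit

variable {ι : Type*} {D : ι → Submodule F V} {σ : Equiv.Perm ι}

theorem map_pow_eq (h2 : ∀ j, (D j).map f = D (σ j)) (j : ι) (k : ℕ) : (D j).map (f ^ k) = D (σ^[k] j) := by
  induction k with
  | zero => simp [End.one_eq_id]
  | succ k ih => rw [pow_succ', End.mul_eq_comp, Submodule.map_comp, ih, h2, Function.iterate_succ_apply']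

theorem minimalPeriod_eq (hi : iSupIndep D) (hD : ∀ j, D j ≠ ⊥) (hr : r.Prime) (h1 : f ^ r = 1)
    (h2 : ∀ j, (D j).map f = D (σ j)) {j : ι} (hj : σ j ≠ j) : Function.minimalPeriod σ j = r :=
  haveI := Fact.mk hr
  Function.minimalPeriod_eq_prime (hi.injective hD (by
    rw [← map_pow_eq h2, h1, End.one_eq_id, Submodule.map_id])) hj

theorem eq_zero_of_orbit (hi : iSupIndep D) (hD : ∀ j, D j ≠ ⊥) (hr : r.Prime) (h1 : f ^ r = 1)
    (h2 : ∀ j, (D j).map f = D (σ j)) {j : ι} (hj : σ j ≠ j) {u : Fin r → V} (hu : ∀ k, u k ∈ D j)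
    (h : ∑ k, (f ^ k.1) (u k) = 0) (k : Fin r) : u k = 0 := by
  have h4 := minimalPeriod_eq hi hD hr h1 h2 hj
  have h5 := (iSupIndep_iff_finsetSum_eq_zero_imp_eq_zero _).1 (hi.comp (f := fun k : Fin r => σ^[k] j)
    fun k l e => Fin.ext (Function.iterate_injOn_Iio_minimalPeriod (h4 ▸ k.2) (h4 ▸ l.2) e)) .univ _
    (fun k _ => (map_pow_eq h2 j k).le (Submodule.mem_map_of_mem (hu k))) h k (Finset.mem_univ _)
  exact (injective_iff_map_eq_zero _).1 ((End.isUnit_iff _).1 ((IsUnit.of_pow_eq_one h1 hr.ne_zero).pow k)).1 _ h5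

theorem le_of_orbit [Module.Finite F V] (hi : iSupIndep D) (hD : ∀ j, D j ≠ ⊥) (hr : r.Prime) (h1 : f ^ r = 1)
    (h2 : ∀ j, (D j).map f = D (σ j)) {j : ι} (hj : σ j ≠ j) :
    finrank F (D j) ≤ finrank F (range (∑ k ∈ .range r, f ^ k)) ∧
      (r - 1) * finrank F (D j) ≤ finrank F (range (f - 1)) := by
  have h3 := @eq_zero_of_orbit _ _ _ _ _ _ _ _ _ _ hi hD hr h1 h2 j hj
  obtain ⟨r, rfl⟩ : ∃ s, r = s + 1 := ⟨r - 1, by have := hr.pos; omega⟩
  constructor
  · rw [← finrank_range_of_inj (f := (∑ k ∈ .range (r + 1), f ^ k) ∘ₗ (D j).subtype)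
      ((injective_iff_map_eq_zero _).2 fun u hu => Subtype.ext (h3 (u := fun _ => u) (fun _ => u.2) ?_ 0))]
    · exact Submodule.finrank_mono (range_comp_le_range _ _)
    · simpa [Finset.sum_range] using hu
  · have h7 : finrank F (Fin r → D j) = r * finrank F (D j) := by simp [finrank_pi_fintype]
    rw [Nat.add_sub_cancel, ← h7, ← finrank_range_of_inj (f := ∑ k : Fin r, (f ^ (k.1 + 1) - 1) ∘ₗ (D j).subtype ∘ₗ
      proj k) ((injective_iff_map_eq_zero _).2 fun u hu => funext fun l => Subtype.ext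
        (h3 (u := Fin.cons (-∑ k, (u k : V)) fun k => u k) (fun k => ?_) ?_ l.succ))]
    · refine Submodule.finrank_mono ?_
      rintro _ ⟨u, rfl⟩
      rw [LinearMap.sum_apply]
      exact sum_mem fun k _ => ⟨_, by rw [← mul_geom_sum]; rfl⟩
    · exact k.cases (neg_mem (sum_mem fun k _ => (u k).2)) fun k => (u k).2
    · simpa [Fin.sum_univ_succ, neg_add_eq_sub] using hu

end Orbit

variable [Module.Finite F V]

theorem Dec.exists_typ (h : Dec f a t) (ha : 0 < a) (hr : r.Prime) (h1 : f ^ r = 1)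
    (h2 : finrank F (range (∑ k ∈ .range r, f ^ k)) < a ∨ finrank F (range (f - 1)) < (r - 1) * a) :
    ∃ μ : Fin t → Multiset F[X], typ f = ∑ j, μ j ∧ ∀ j, ((μ j).map natDegree).sum = a := by
  classical
  obtain ⟨h0, D, σ, h3, h4, h5⟩ := h
  have hi := (indep_iff_finrank h4).2 (by simp [h3, h0, mul_comm])
  have h6 : ∀ j, ∀ x ∈ D j, f x ∈ D j := fun j x hx => by
    have : σ j = j := by_contra fun h0 => by
      have := le_of_orbit hi (fun j e => by have := h3 j; rw [e, finrank_bot] at this; omega) hr h1 h5 h0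
      rw [h3] at this
      omega
    exact this ▸ h5 j ▸ Submodule.mem_map_of_mem hx
  exact ⟨_, typ_of_isInternal f (DirectSum.isInternal_submodule_of_iSupIndep_of_iSup_eq_top hi h4) h6,
    fun j => (blocks_typ _).finrank_eq.symm.trans (h3 j)⟩

theorem Dec.le_mul_finrank_ker (h : Dec f 1 t) (hr : r.Prime) (h0 : (r : F) ≠ 0) (h1 : f ^ r = 1)
    (hF : ∀ c : F, c ^ r = 1 → c = 1) : t ≤ r * finrank F (ker (f - 1)) := by
  classical
  obtain ⟨h2, D, σ, h3, h4, h5⟩ := h
  have hi := (indep_iff_finrank h4).2 (by simp [h3, h2])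
  have hD : ∀ j, D j ≠ ⊥ := fun j e => by have := h3 j; rw [e, finrank_bot] at this; omega
  choose v hv hv0 using fun j => (Submodule.ne_bot_iff _).1 (hD j)
  let Q := Quotient (Equiv.Perm.SameCycle.setoid σ)
  have hσ : ∀ j, σ^[r] j = j := fun j => hi.injective hD (by
    rw [← map_pow_eq h5, h1, End.one_eq_id, Submodule.map_id])
  have h6 : t ≤ r * Fintype.card Q := by
    simpa using Fintype.card_le_of_surjective (fun x : Fin r × Q => σ^[x.1] x.2.out) fun j => by
      obtain ⟨i, -, hi⟩ := Equiv.Perm.SameCycle.exists_pow_eq' (Quotient.mk_out (s := Equiv.Perm.SameCycle.setoid σ) j)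
      refine ⟨(⟨i % r, Nat.mod_lt _ hr.pos⟩, ⟦j⟧), (Function.IsPeriodicPt.iterate_mod_apply (hσ _) i).trans ?_⟩
      exact (congrFun (Equiv.Perm.coe_pow σ i) _).symm.trans hi
  refine h6.trans (Nat.mul_le_mul_left _ (LinearIndependent.fintype_card_le_finrank (b := fun O : Q =>
    (⟨(∑ k ∈ .range r, f ^ k) (v O.out), by
      rw [mem_ker, ← End.mul_apply, mul_geom_sum, h1, sub_self, LinearMap.zero_apply]⟩ : ker (f - 1)))
    (.of_comp (ker _).subtype (Fintype.linearIndependent_iff.2 fun c hc O => ?_))))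
  have h7 : ∀ (O : Q) (k : ℕ), (f ^ k) (v O.out) ∈ ⨆ j ∈ {j | ⟦j⟧ = O}, D j := fun O k =>
    Submodule.mem_iSup_of_mem _ (Submodule.mem_iSup_of_mem (by
      refine (Quotient.sound (Equiv.Perm.SameCycle.symm ⟨k, ?_⟩)).trans O.out_eq
      rw [zpow_natCast, Equiv.Perm.coe_pow])
      ((map_pow_eq h5 _ k).le (Submodule.mem_map_of_mem (hv _))))
  have h8 : iSupIndep fun O : Q => ⨆ j ∈ {j | ⟦j⟧ = O}, D j := fun O => by
    refine (hi.disjoint_biSup_biSup (t := {j | ⟦j⟧ ≠ O}) disjoint_compl_right).mono_right ?_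
    exact iSup₂_le fun O' h => biSup_mono fun j (hj : _ = _) e => h (hj.symm.trans e)
  have h9 := (iSupIndep_iff_finsetSum_eq_zero_imp_eq_zero _).1 h8 .univ _ (fun O _ => Submodule.smul_mem _ (c O) (by
    simpa using sum_mem fun k _ => h7 O k)) hc O (Finset.mem_univ _)
  refine (smul_eq_zero.1 h9).resolve_right fun e => hv0 O.out ?_
  by_cases h10 : σ O.out = O.out
  · obtain ⟨d, hd⟩ : ∃ d : F, d • v O.out = f (v O.out) := by
      have := (finrank_eq_one_iff_of_nonzero' (⟨_, hv O.out⟩ : D _) (by simpa using hv0 _)).1 (h3 _)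
        ⟨f (v O.out), ((h5 _).trans (congrArg D h10)).le (Submodule.mem_map_of_mem (hv _))⟩
      simpa using this
    have h11 : ∀ k, (f ^ k) (v O.out) = d ^ k • v O.out := fun k => by
      induction k with
      | zero => simp
      | succ k ih => rw [pow_succ', End.mul_apply, ih, map_smul, ← hd, smul_smul, pow_succ]
    have h12 := hF d (smul_left_injective F (hv0 O.out) (by simp only [← h11, h1]; simp))
    simpa [h11, h12, ← Nat.cast_smul_eq_nsmul F, h0] using e
  · exact eq_zero_of_orbit hi hD hr h1 h5 h10 (u := fun _ => v O.out) (fun _ => hv _)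
      (by simpa [Finset.sum_range] using e) ⟨0, hr.pos⟩

open scoped Pointwise in
theorem div_dvd_card_GL {n : Type} [Fintype n] [DecidableEq n] (h : Fintype.card n = a * t) (ha : 0 < a) (ht : 2 ≤ t) :
    Nat.card {D : Fin t → Submodule F (n → F) // Geo.IsMDecomposition a D} / t.factorial ∣ Nat.card (GL n F) := by
  letI : MulAction (Equiv.Perm (Fin t)) {D : Fin t → Submodule F (n → F) // Geo.IsMDecomposition a D} :=
    { smul := fun σ D => ⟨D.1 ∘ σ.symm, ht, ha, fun _ => D.2.finrank_eq _, D.2.indep.comp σ.symm.injective,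
        (σ.symm.iSup_comp (g := D.1)).trans D.2.iSup_eq_top⟩
      one_smul := fun _ => rfl
      mul_smul := fun _ _ _ => rfl }
  refine (Nat.div_dvd_of_dvd ?_).trans ?_
  · rw [Nat.card_congr (MulAction.selfEquivOrbitsQuotientProd fun D => eq_bot_iff.2 fun σ hσ =>
      Subgroup.mem_bot.2 (inv_eq_one.1 (Equiv.ext (f := σ⁻¹) fun j => D.2.indep.injective (fun j e => by
        have := D.2.finrank_eq j; rw [e, finrank_bot] at this; omega) (congrArg (·.1 j) hσ)))), Nat.card_prod]
    simp [Fintype.card_perm]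
  obtain ⟨f, hf⟩ := exists_blocks_of_finrank (V := n → F) (μ := .replicate (a * t) (X - C (1 : F)))
    (fun P hP => Multiset.eq_of_mem_replicate hP ▸ monic_X_sub_C _) (by simp [-map_one, h])
  obtain ⟨D, hD, -⟩ := (dec_iff ha ht h).2 (DT.of_le (k := a * t) (b := 0) (c := 1) (fun P hP => by
    simp [Multiset.eq_of_mem_replicate hP]) (by simp [-map_one]) (by simp) (by simp [Nat.mod_one]) _ f hf)
  rw [Nat.card_congr (Matrix.GeneralLinearGroup.toLin.trans (GeneralLinearGroup.generalLinearEquiv F _)).toEquiv]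
  refine Dvd.intro _ (Unitary.card_eq_mul_of_transitive D _ fun D' => ⟨fun hD' => ?_, ?_⟩).symm
  · let e := fun j => LinearEquiv.ofFinrankEq (D j) (D' j) ((hD.finrank_eq j).trans (hD'.finrank_eq j).symm)
    let b := (DirectSum.isInternal_submodule_of_iSupIndep_of_iSup_eq_top hD.indep hD.iSup_eq_top).collectedBasis
      fun j => finBasis F (D j)
    let b' := (DirectSum.isInternal_submodule_of_iSupIndep_of_iSup_eq_top hD'.indep
      hD'.iSup_eq_top).collectedBasis fun j => (finBasis F (D j)).map (e j)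
    have hb : ∀ j k, b ⟨j, k⟩ = finBasis F (D j) k := fun j k =>
      congrFun (DirectSum.IsInternal.collectedBasis_coe _ _) _
    have hb' : ∀ j k, b' ⟨j, k⟩ = e j (finBasis F (D j) k) := fun j k =>
      congrFun (DirectSum.IsInternal.collectedBasis_coe _ _) _
    clear_value b b'
    refine ⟨b.equiv b' (.refl _), funext fun j => Submodule.eq_of_le_of_finrank_eq ?_
        (((b.equiv b' (.refl _)).finrank_map_eq (D j)).trans (e j).finrank_eq)⟩
    rintro _ ⟨v, hv, rfl⟩
    have : (b.equiv b' (.refl _)).toLinearMap ∘ₗ (D j).subtype = (D' j).subtype ∘ₗ (e j).toLinearMap :=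
      (finBasis F (D j)).ext fun k => by simpa [hb, hb'] using b.equiv_apply ⟨j, k⟩ b' (.refl _)
    exact LinearMap.congr_fun this ⟨v, hv⟩ ▸ (e j _).2
  rintro ⟨e, rfl⟩
  have h1 : ∀ j, finrank F ((e • D) j) = a := fun j => (e.finrank_map_eq _).trans (hD.finrank_eq j)
  have h2 : iSup (e • D) = ⊤ := by
    change ⨆ j, (D j).map e.toLinearMap = ⊤
    rw [← Submodule.map_iSup, hD.iSup_eq_top, Submodule.map_top, e.range]
  exact ⟨ht, ha, h1, (indep_iff_finrank h2).2 (by simp only [h1]; simp [h, mul_comm]), h2⟩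

end Cfsg.Lib.GLC
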