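import Cfsg.Agent.Lib.Linear.Simple

/-!
# Steinberg's two generators of `SL_{n+1}`
-/

set_option autoImplicit false

namespace Cfsg.Lib.GLC.Gen2

open Matrix Matrix.SpecialLinearGroup Cfsg.Lib.Linear
open scoped commutatorElement

variable {K : Type*} [Field K] {n : ℕ}

theorem fin_ne_add_one (hn : 1 ≤ n) (i : Fin (n + 1)) : i ≠ i + 1 := by
  intro h
  have h1 : (1 : Fin (n + 1)) = 0 := by simpa using h.symm
  have := congrArg Fin.val h1
  rw [Fin.val_one', Fin.val_zero, Nat.mod_eq_of_lt (by omega)] at this
  omega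

theorem w_eq (w : Matrix (Fin (n + 1)) (Fin (n + 1)) K)
    (hw : w = Matrix.of (fun i j : Fin (n + 1) =>
      if j.val = i.val + 1 then (1 : K) else if i.val = n ∧ j.val = 0 then (-1) ^ n else 0)) :
    w = Matrix.of (fun i j : Fin (n + 1) =>
      if j = i + 1 then (if i.val = n then (-1 : K) ^ n else 1) else 0) := by
  rw [hw]
  ext i j
  simp only [of_apply]
  have hi := i.2
  have hj := j.2
  have hv : (i + 1 : Fin (n + 1)).val = if i.val = n then 0 else i.val + 1 := by
    rw [Fin.val_add_one]
    by_cases h : i = Fin.last n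
    · simp [h]
    · have : i.val ≠ n := fun h' => h (Fin.ext h')
      simp [h, this]
  by_cases h : i.val = n
  · rw [if_pos h] at hv
    rw [if_neg (by omega), if_pos h]
    by_cases h0 : j.val = 0
    · rw [if_pos ⟨h, h0⟩, if_pos (Fin.ext (by omega))]
    · rw [if_neg (fun hh => h0 hh.2), if_neg (fun hh => h0 (by rw [hh, hv]))]
  · rw [if_neg h] at hv
    rw [if_neg h]
    by_cases h0 : j.val = i.val + 1
    · rw [if_pos h0, if_pos (Fin.ext (by omega))]
    · rw [if_neg h0, if_neg (fun hh => h hh.1), if_neg (fun hh => h0 (by rw [hh, hv]))]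

theorem mono_mul_single (ε : Fin (n + 1) → K) (i j : Fin (n + 1)) (c : K) :
    (Matrix.of (fun i j : Fin (n + 1) => if j = i + 1 then ε i else 0)) * single (i + 1) j c =
      single i j (ε i * c) := by
  ext a b
  by_cases hb : b = j
  · subst hb
    rw [mul_single_apply_same, of_apply, single_apply]
    by_cases ha : i = a
    · subst ha; simp
    · rw [if_neg (fun h => ha (add_right_cancel h)), if_neg (fun h => ha h.1), zero_mul]
  · rw [mul_single_apply_of_ne _ _ _ _ _ hb, single_apply, if_neg (fun h => hb h.2.symm)]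

theorem single_mul_mono (ε : Fin (n + 1) → K) (i j : Fin (n + 1)) (c : K) :
    single i j c * (Matrix.of (fun i j : Fin (n + 1) => if j = i + 1 then ε i else 0)) =
      single i (j + 1) (c * ε j) := by
  ext a b
  by_cases ha : a = i
  · subst ha
    rw [single_mul_apply_same, of_apply, single_apply]
    by_cases hb : b = j + 1
    · subst hb; simp
    · rw [if_neg hb, if_neg (fun h => hb h.2.symm), mul_zero]
  · rw [single_mul_apply_of_ne _ _ _ _ _ ha, single_apply, if_neg (fun h => ha h.1.symm)]

theorem mono_mul_diagonal (ε d : Fin (n + 1) → K) :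
    (Matrix.of (fun i j : Fin (n + 1) => if j = i + 1 then ε i else 0)) * diagonal d =
      diagonal (fun i => d (i + 1)) *
        (Matrix.of (fun i j : Fin (n + 1) => if j = i + 1 then ε i else 0)) := by
  ext a b
  rw [mul_diagonal, diagonal_mul, of_apply]
  split_ifs with h
  · rw [h, mul_comm]
  · simp

theorem eq_top_of_mono (hn : 1 ≤ n) (H : Subgroup (SpecialLinearGroup (Fin (n + 1)) K))
    (ε : Fin (n + 1) → K) (hε : ∀ i, ε i ≠ 0) (w : SpecialLinearGroup (Fin (n + 1)) K)
    (hw : w.1 = Matrix.of (fun i j : Fin (n + 1) => if j = i + 1 then ε i else 0)) (hwH : w ∈ H)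
    (h0 : ∀ (h : (0 : Fin (n + 1)) ≠ 1) (c : K), transvection h c ∈ H) : H = ⊤ := by
  let Q : Fin (n + 1) → Fin (n + 1) → Prop := fun i j => ∀ (h : i ≠ j) (c : K), transvection h c ∈ H
  have htr : ∀ i j k, Q i j → Q j k → Q i k := by
    intro i j k hij hjk h c
    by_cases e1 : i = j
    · subst e1; exact hjk h c
    by_cases e2 : j = k
    · subst e2; exact hij h c
    rw [← mul_one c, ← commutator_transvection e1 e2 h c 1, commutatorElement_def]
    exact H.mul_mem (H.mul_mem (H.mul_mem (hij _ _) (hjk _ _)) (H.inv_mem (hij _ _)))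
      (H.inv_mem (hjk _ _))
  have hsh : ∀ i j, Q i j → Q (i + 1) (j + 1) := by
    intro i j hij h c
    have h' : i ≠ j := fun e => h (by rw [e])
    have key : w * transvection h c = transvection h' (ε i * c * (ε j)⁻¹) * w := by
      apply Subtype.ext
      show w.1 * (1 + single (i + 1) (j + 1) c) = (1 + single i j (ε i * c * (ε j)⁻¹)) * w.1
      rw [mul_add, add_mul, mul_one, one_mul, hw, mono_mul_single, single_mul_mono,
        mul_assoc (ε i * c), inv_mul_cancel₀ (hε j), mul_one]
    have : transvection h c = w⁻¹ * (transvection h' (ε i * c * (ε j)⁻¹) * w) := by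
      rw [← key]; group
    rw [this]
    exact H.mul_mem (H.inv_mem hwH) (H.mul_mem (hij _ _) hwH)
  have hs : ∀ i, Q i (i + 1) := by
    intro i
    induction i using Fin.induction with
    | zero => rw [zero_add]; exact h0
    | succ m ih =>
      have := hsh _ _ ih
      rwa [Fin.coeSucc_eq_succ] at this
  have hall : ∀ i m, Q i (i + m) := by
    intro i m
    induction m using Fin.induction with
    | zero => intro h; exact absurd (add_zero i).symm h
    | succ m ih =>
      rw [← Fin.coeSucc_eq_succ, ← add_assoc]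
      exact htr _ _ _ ih (hs _)
  refine eq_top_of_transvection_mem H fun i j h c => ?_
  have := hall i (j - i)
  rw [add_sub_cancel] at this
  exact this h c

theorem diag_conj {ι : Type*} [Fintype ι] [DecidableEq ι] (D : SpecialLinearGroup ι K) (d : ι → K)
    (hD : D.1 = diagonal d) {i j : ι} (h : i ≠ j) (hj : d j ≠ 0) (c : K) :
    D * transvection h c * D⁻¹ = transvection h (d i * c * (d j)⁻¹) := by
  rw [mul_inv_eq_iff_eq_mul]
  apply Subtype.ext
  show D.1 * (1 + single i j c) = (1 + single i j (d i * c * (d j)⁻¹)) * D.1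
  rw [mul_add, add_mul, mul_one, one_mul, hD, diagonal_mul_single, single_mul_diagonal,
    mul_assoc (d i * c), inv_mul_cancel₀ hj, mul_one]

end Cfsg.Lib.GLC.Gen2
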