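import Cfsg.Agent.Lib.GLC.Into
import Cfsg.Agent.Lib.GLC.FENum
import Cfsg.Agent.Lib.Orth.Elus2
import Cfsg.Agent.Lib.Asch.Adjs
import Cfsg.Agent.Lib.Unitary.PrimeOrd

/-!
Elements of prime order of `PSL` preserving a form up to a scalar.
-/

set_option autoImplicit false

namespace Cfsg.Lib.GLC

open Module Polynomial LinearMap Matrix Cfsg.Lib.Symp Cfsg.Geo Cfsg.Lib.Asch Nilp Cfsg.Lib.Orth QuadraticMap

variable {F V W : Type*} [Field F] [AddCommGroup V] [Module F V] [AddCommGroup W] [Module F W] {r : ℕ}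
  {ι : Type} [Fintype ι] [DecidableEq ι] {H : Subgroup (GL ι F)}
  {σ : F →+* F} {ε c : F} {φ : (ι → F) → (ι → F) → F}

theorem into_sim_of_equiv (e : W ≃ₗ[F] (ι → F)) {g : End F W} (hg : IsUnit g) (hc : c ≠ 0)
    (h : ∀ u v, φ (e (g u)) (e (g v)) = c * φ (e u) (e v)) : Into (similarityGroup φ) g :=
  into_sim ((sim_conj e g).isUnit_iff.1 hg) (sim_conj e g).symm hc fun u v => by simpa using h (e.symm u) (e.symm v)

theorem quadSim_eq (Q : (ι → F) → F) : quadSimilarityGroup Q = similarityGroup fun u _ => Q u :=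
  Subgroup.ext fun _ => exists_congr fun _ => ⟨fun h u _ => h u, fun h u => h u u⟩

theorem quadSim_le (Q : QuadraticForm F (ι → F)) : quadSimilarityGroup Q ≤ similarityGroup (polar Q) :=
  fun g ⟨c, h⟩ => ⟨c, polar_of_sim (toLin' g.1) h⟩

theorem scalars_le_quadSim (Q : QuadraticForm F (ι → F)) : scalars ι F ≤ quadSimilarityGroup Q := fun g hg => by
  obtain ⟨c, hc⟩ := (mem_scalars_iff g).1 hg
  exact ⟨c ^ 2, fun v => by simp [hc, smul_mulVec, Q_smul]⟩

theorem exists_qf {q : (ι → F) → F} (h : IsNondegenerateQuadraticForm q) : ∃ Q : QuadraticForm F (ι → F), ⇑Q = q ∧ ND Q :=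
  ⟨.ofPolar q (fun a x => by rw [h.smul, smul_eq_mul]; ring) h.polar_bilinear.add_left h.polar_bilinear.smul_left, rfl,
    (nd_iff _).2 fun x hx => by_contra fun h0 => (h.nondegenerate x h0).2.elim fun y hy => hy (hx y)⟩

theorem exists_bilin (h : IsSymplecticForm φ) :
    ∃ B : LinearMap.BilinForm F (ι → F), B.IsAlt ∧ B.Nondegenerate ∧ (fun u v => B u v) = φ :=
  let B := mk₂ F φ h.bilinear.add_left h.bilinear.smul_left h.bilinear.add_right h.bilinear.smul_right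
  ⟨B, h.alternating, nondegenerate_of_isAlt h.alternating (sform_of_symplectic h).nondeg', rfl⟩

theorem lt_map_dual {M : Multiset F} (h : ∀ a ∈ M, a ≠ 0) : (lt M).map (Unitary.dual σ) = lt (M.map (σ ·)⁻¹) := by
  simp only [lt, Multiset.map_map]
  exact Multiset.map_congr rfl fun a ha => Unitary.dual_X_sub_C (h a ha)

theorem map_dual_eq {ν : Multiset F[X]} {k : ℕ} (h : (Multiset.replicate k (X - C 1) + ν).map (Unitary.dual σ) =
    .replicate k (X - C 1) + ν) : ν.map (Unitary.dual σ) = ν :=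
  Unitary.map_dual_right h (by simp [Unitary.dual_X_sub_C, -map_one, σ.map_one])

theorem blocks_smul_one' [Module.Finite F V] (c : F) : Blocks (c • 1 : End F V) (lt (.replicate (finrank F V) c)) := by
  obtain ⟨g, hg⟩ := exists_blocks_lt (V := V) (M := .replicate (finrank F V) c) (by simp)
  exact hg.lt_eq_smul_iff.2 (fun _ => Multiset.eq_of_mem_replicate) ▸ hg

theorem into_sp {B : LinearMap.BilinForm F (ι → F)} (hA : B.IsAlt) (hB : B.Nondegenerate) {l : Type*} [Fintype l]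
    [DecidableEq l] (hl : Fintype.card ι = 2 * Fintype.card l) {g : End F (l ⊕ l → F)} (hg : IsUnit g) (hc : c ≠ 0)
    (h : ∀ u v, bil l F (g u) (g v) = c * bil l F u v) : Into (similarityGroup fun u v => B u v) g := by
  obtain ⟨e, he⟩ := exists_isometry_of_finrank_eq (bil_isAlt l F) (bil_nondegenerate l F) hA hB (by simp [hl, two_mul])
  exact into_sim_of_equiv e hg hc (by simpa only [he])

theorem into_sp_of_occ {B : LinearMap.BilinForm F (ι → F)} (hA : B.IsAlt) (hB : B.Nondegenerate) {μ : Multiset F[X]}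
    (h : Occ μ) {f : End F (ι → F)} (hf : Blocks f μ) : Into (similarityGroup fun u v => B u v) f := by
  obtain ⟨m, a, ha⟩ := h
  exact (into_sp hA hB (by simpa [two_mul] using (hf.sim ha).finrank_eq) (spE_sp a).isUnit one_ne_zero
    (by simpa using (spE_sp a).inv)).sim (ha.sim hf)

universe u in
theorem exists_sq_sim {F : Type u} [Field F] [Finite F] {z : F} (hz : ∀ b, b ^ 2 ≠ z) (m : ℕ) :
    ∀ (V : Type u) [AddCommGroup V] [Module F V] [Module.Finite F V] (Q : QuadraticForm F V), ND Q →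
      finrank F V = 2 * (m + 1) → ∃ g : End F V, g ^ 2 = z • 1 ∧ ∀ v, Q (g v) = z * Q v := by
  induction m using Nat.strong_induction_on with | _ m ih
  intro V _ _ _ Q hQ hV
  rcases m with _ | m
  · obtain ⟨v, hv⟩ := exists_Q_eq hQ hV.ge 1
    obtain ⟨w, hw⟩ := exists_Q_eq hQ hV.ge z
    let b := basisOfLinearIndependentOfCardEqFinrank (b := ![v, w]) ((LinearIndependent.pair_iff' (by
      rintro rfl; simp at hv)).2 fun a e => hz a (by rw [← hw, ← e, Q_smul, hv, mul_one])) (by simp [hV])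
    have h1 : b 0 = v ∧ b 1 = w := by simp [b]
    have h2 : ∀ i, b.constr F ![w, z • v] (b i) = ![w, z • v] i := b.constr_basis F _
    have h3 := h1.1 ▸ h2 0
    have h4 := h1.2 ▸ h2 1
    generalize b.constr F ![w, z • v] = g at h3 h4
    refine ⟨g, b.ext (by simp [Fin.forall_fin_two, h1, pow_succ, h3, h4]), fun x => ?_⟩
    rw [← b.sum_repr x, Fin.sum_univ_two]
    simp only [map_add, map_smul, h1]
    simp [-Basis.sum_repr, h3, h4, Q_add, Q_smul, hv, hw, polar_comm _ w v]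
    ring
  obtain ⟨Q', h1, -⟩ := exists_qsg (F := F) two_ne_zero (by simp [Nat.odd_iff]) 1
  obtain ⟨R, h2, ⟨e⟩⟩ := exists_equivalent_prod hQ h1 (k := 2 * (m + 1)) (by simp; omega) (by simp)
  obtain ⟨g, h3, h4⟩ := ih 0 (by omega) _ _ h1 (by simp)
  obtain ⟨g', h5, h6⟩ := ih m (by omega) _ _ h2 (by simp)
  refine ⟨_, (sim_conj e.toLinearEquiv (g.prodMap g')).pow_eq_smul_one_iff.1 (prodMap_pow_eq_smul_one_iff.2 ⟨h3, h5⟩),
    fun v => ?_⟩
  obtain ⟨v, rfl⟩ := e.toLinearEquiv.surjective v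
  simp [h4, h6, mul_add]

theorem mem_spGL {d : ℕ} {x : GL (Fin d ⊕ Fin d) F} : x ∈ spGL d F ↔ SpE (bil (Fin d) F) (toLin' x.1) :=
  ⟨fun h => ⟨bil_isAlt _ F, bil_nondegenerate _ F, fun u v => by simp only [← sympForm_eq_bil]; exact h u v⟩,
    fun h u v => by simp only [sympForm_eq_bil]; exact h.inv u v⟩

theorem fmt_sp {d : ℕ} {H : Subgroup (GL (Fin d ⊕ Fin d) F)} : (∀ x ∈ spGL d F, (∃ z : F, (x ^ r).1 = z • 1) →
    (∀ z : F, x.1 ≠ z • 1) → ∃ g ∈ spGL d F, g⁻¹ * x * g ∈ H) ↔ ∀ f, SpE (bil (Fin d) F) f → (∃ z : F, f ^ r = z • 1) →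
      (¬ ∃ z : F, f = z • 1) → ∃ h ∈ H, ISim (bil (Fin d) F) (toLin' h.1) (bil (Fin d) F) f := by
  have h1 : ∀ x : GL (Fin d ⊕ Fin d) F, (∃ g ∈ spGL d F, g⁻¹ * x * g ∈ H) ↔
      ∃ h ∈ H, ISim (bil (Fin d) F) (toLin' h.1) (bil (Fin d) F) (toLin' x.1) := fun x =>
    ⟨fun ⟨g, h1, h2⟩ => ⟨_, h2, glEquiv _ F g, (mem_spGL.1 h1).inv, fun v => by
      simp [glEquiv_apply, ← mul_assoc, -coe_units_inv]⟩, fun ⟨h, h1, e, h2, h3⟩ => by
      obtain ⟨g, rfl⟩ := (glEquiv _ F).surjective e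
      refine ⟨g, mem_spGL.2 ⟨bil_isAlt _ F, bil_nondegenerate _ F, h2⟩, ?_⟩
      rwa [mul_assoc, inv_mul_eq_iff_eq_mul.2 (Units.ext (matrix_ext_mulVec fun v => by
        simpa [glEquiv_apply] using (h3 v).symm))]⟩
  simp only [h1]
  simp only [mem_spGL, Units.val_pow_eq_pow_val, ← toLin'_eq_smul_one_iff, ne_eq, ← not_exists, toLin'_pow']
  refine ⟨fun h f hf => ?_, fun h x => h _⟩
  obtain ⟨x, hx⟩ : IsUnit (LinearMap.toMatrix' f) := hf.isUnit.map toMatrixAlgEquiv'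
  obtain rfl : toLin' x.1 = f := by simp [hx]
  exact h x hf

theorem card_comap_glEquiv (K : Subgroup ((ι → F) ≃ₗ[F] (ι → F))) :
    Nat.card (K.comap (glEquiv ι F).toMonoidHom) = Nat.card K :=
  Nat.card_congr ((glEquiv ι F).toEquiv.subtypeEquiv fun _ => Iff.rfl)

variable [Finite F]

theorem card_spGL (d : ℕ) : Nat.card (spGL d F) = cS F d := by
  rw [cS, ← card_isom (bil_isAlt (Fin d) F) (bil_nondegenerate _ F) (by simp [two_mul]), ← card_comap_glEquiv]
  exact Nat.card_congr (Equiv.subtypeEquivRight fun x => mem_spGL.trans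
    ⟨SpE.inv, fun h => ⟨bil_isAlt _ F, bil_nondegenerate _ F, h⟩⟩)

variable [hr : Fact r.Prime]

theorem eq_one_of_pow_eq_one (h : ¬ r ∣ Nat.card F - 1) (hc : c ^ r = 1) : c = 1 := by
  simpa using det_eq_one_of_pow (f := (c • 1 : End F F)) hr.out h (by rw [_root_.smul_pow, hc, one_pow, one_smul])

theorem not_dvd_of_cast_eq_zero (h : (r : F) = 0) : ¬ r ∣ Nat.card F - 1 := fun e => by
  have := Fintype.ofFinite F
  have := Nat.cast_dvd_cast (α := F) e
  simp [h, Nat.cast_sub Fintype.card_pos] at this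

theorem Into.exists_iso [Nonempty ι] (h : SForm σ ε φ) (hH : H ≤ similarityGroup φ) (h0 : ¬ r ∣ Nat.card F - 1) {f : End F V}
    (hf : Into H f) (h1 : f ^ r = 1) : ∃ x ∈ H, Sim (toLin' x.1) f ∧ x ∈ iso φ := by
  obtain ⟨x, h2, h3⟩ := hf
  obtain ⟨c, hc⟩ := hH h2
  have := h.pow_eq (g := toLin' x.1) hc (h3.pow_eq_smul_one_iff.2 (h1.trans (one_smul F _).symm))
  exact ⟨x, h2, h3, fun u v => by rw [hc, eq_one_of_pow_eq_one (c := c.1) h0 (by simpa using this), one_mul]⟩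

theorem not_elSL_of_dvd (h : SForm σ ε φ) (hH : H ≤ similarityGroup φ) (hs : scalars ι F ≤ H) (h2 : r ≠ 2)
    (hq : r ∣ Nat.card F - 1) (hσ : ∀ a, a ^ r = 1 → σ a = a) {n : ℕ} (hn : Fintype.card ι = n) (h3 : 3 ≤ n)
    (h6 : ¬ (n = 6 ∧ r = 3)) (h5 : ¬ ((r = 3 ∨ r = 5) ∧ n = r ∧ padicValNat r (Nat.card F - 1) = 1)) :
    ¬ ElSL (V := ι → F) r (Into H) := fun e => by
  have h1 : ((r - 1 : ℕ) : ZMod r) = -1 := by simp [hr.out.pos]
  obtain ⟨f, M, ⟨x, h7, h8⟩, h9, h10, h11⟩ := e.exists_bad (fun _ _ hc h => h.smul hs hc) h2 hq (s := r - 1) (n := n) (by simpa)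
    (by omega) (by simp [h1]) (haveI := Fact.mk (hr.out.two_le.lt_of_ne' h2); h1 ▸ ZMod.neg_one_ne_one) fun _ => ⟨h3, h6, h5⟩
  obtain ⟨c, hc⟩ := hH h7
  refine h11 c (.trans (Multiset.map_congr rfl fun a ha => ?_) (h.map_div (g := toLin' x.1) c.ne_zero hc (h8.blocks h9)))
  rw [hσ a (h10 a ha), div_eq_mul_inv, inv_eq_of_mul_eq_one_left (a := a ^ (r - 1))]
  rw [← pow_succ, Nat.sub_add_cancel hr.out.pos, h10 a ha]

omit hr in
theorem mul_card_dvd_gq (h : r ∣ H.relIndex (specialLinear ι F)) {K : Subgroup ((ι → F) ≃ₗ[F] (ι → F))}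
    (hK : ∀ x, glEquiv ι F x ∈ K → x ∈ H) : r * Nat.card K ∣ gq (Nat.card F) (Fintype.card ι) := by
  rw [← card_GL_eq_gq, ← card_comap_glEquiv]
  exact mul_card_dvd_of_normal (N := MonoidHom.ker _) h hK

theorem val_lt_of_dvd {a b : ℕ} (h : r * a ∣ b) (hb : b ≠ 0) : padicValNat r a < padicValNat r b := by
  have ha : a ≠ 0 := by rintro rfl; simp [hb] at h
  exact (padicValNat_dvd_iff_le hb).1 ((pow_succ' r _).dvd.trans ((mul_dvd_mul_left r pow_padicValNat_dvd).trans h))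

variable {i d : ℕ}

theorem _root_.Cfsg.Lib.Symp.OP.val_gq (h : OP F r i d) (he : Even i) (n : ℕ) :
    padicValNat r (gq (Nat.card F) n) = padicValNat r (cS F (n / 2)) := by
  induction n with
  | zero => simp [gq, cS]
  | succ n ih =>
    have h1 := Nat.sub_ne_zero_of_lt (Nat.one_lt_pow n.succ_ne_zero (Finite.one_lt_card (α := F)))
    rw [gq_succ, padicValNat.mul (gq_pos Finite.one_lt_card n).ne' (mul_ne_zero (pow_pos Nat.card_pos _).ne' h1), ih,
      padicValNat.mul (pow_pos Nat.card_pos _).ne' h1,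
      padicValNat.eq_zero_of_not_dvd (mt hr.out.dvd_of_dvd_pow h.not_dvd_card), zero_add]
    rcases n.even_or_odd' with ⟨m, rfl | rfl⟩
    · rw [show (2 * m + 1) / 2 = 2 * m / 2 by omega, add_eq_left, padicValNat.eq_zero_of_not_dvd]
      rw [dvd_pow_sub_one_iff Nat.card_pos, ← h.hi]
      exact fun e => by have := he.two_dvd.trans e; omega
    · rw [show (2 * m + 1 + 1) / 2 = m + 1 by omega, show (2 * m + 1) / 2 = m by omega, h.val_cS_succ]; rfl

theorem _root_.Cfsg.Lib.Symp.OP.exists_of_lt [Module.Finite F V] {Q : QuadraticForm F V} (h : OP F r i d) (hQ : ND Q)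
    (h1 : padicValNat r (Nat.card (O Q)) < padicValNat r (cS F (finrank F V / 2))) :
    ∃ ν : Multiset F[X], (∀ φ ∈ ν, RF r φ) ∧ ν.map rdual = ν ∧ ν.card * i = finrank F V ∧
      qsg Q ≠ (-1) ^ ((i + 1) * ν.card) := by
  rw [h.val_O hQ, h.val_cS (finrank F V / 2), nfit] at h1
  have h2 : 2 * (finrank F V / 2) / d = finrank F V / d := by
    obtain ⟨e, rfl⟩ := h.even.two_dvd
    rw [Nat.mul_div_mul_left _ _ two_pos, Nat.div_div_eq_div_mul]
  split_ifs at h1 with h3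
  · obtain ⟨ν, h4, h5, h6⟩ := h.exists_blocks (finrank F V / d)
    rw [h.sum_eq h4] at h6
    exact ⟨ν, h4, h5, h6.trans (Nat.mul_div_cancel' (Nat.dvd_of_mod_eq_zero h3.1)), h.sign_eq h6 ▸ h3.2⟩
  · simp [h2] at h1

end Cfsg.Lib.GLC
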