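import Cfsg.Agent.Lib.GLC.IntoS
import Cfsg.Agent.Lib.Linear.MaxField2
import Cfsg.Agent.Lib.Linear.Tens

/-!
Elements of prime order of `PSL` with a conjugate in an extension-field or tensor subgroup.
-/

set_option autoImplicit false

namespace Cfsg.Lib.GLC

open Module Polynomial LinearMap Matrix Cfsg.Lib.Symp Cfsg.Geo Cfsg.Lib.Asch Cfsg.Lib.Linear
open scoped Kronecker

variable {F V W : Type*} [Field F] [AddCommGroup V] [Module F V] [AddCommGroup W] [Module F W] {r : ℕ}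
  {ι : Type} [Fintype ι] [DecidableEq ι] {f : End F V}

section Bad

variable [Finite F] [Module.Finite F V] [hr : Fact r.Prime] {P : End F V → Prop}

omit [Finite F] hr in
theorem ElSL.exists_diag (h : ElSL r P) (hP : ∀ f (c : F), c ≠ 0 → P f → P (c • f)) {N : Multiset F}
    (hN : ∀ a ∈ N, a ^ r = 1 ∧ a ≠ 1) (h0 : N ≠ 0) {k : ℕ} (hk : k ≠ 0) (hV : finrank F V = k + N.card) {b : F}
    (hb : b ^ finrank F V * N.prod = 1) :
    ∃ f, P f ∧ f ^ r = 1 ∧ typ f = .replicate k (X - C 1) + lt N ∧ finrank F (ker (f - 1)) = k := by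
  obtain ⟨f, hf⟩ := exists_blocks_lt (V := V) (M := .replicate k 1 + N) (by simp [hV])
  haveI := finrank_pos_iff.1 (by omega : 0 < finrank F V)
  have h1 : ∀ φ ∈ lt N, RF r φ := forall_lt.2 fun a ha => ⟨monic_X_sub_C a, irreducible_X_sub_C a,
    by simp [dvd_iff_isRoot, (hN a ha).1], by simpa [-map_one] using (hN a ha).2⟩
  have h2 := hf.lt_typ
  rw [lt_add, lt_replicate] at h2
  have h3 := pow_eq_one_RF h1 (h2 ▸ blocks_typ f)
  obtain ⟨a, ha⟩ := Multiset.exists_mem_of_ne_zero h0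
  exact ⟨f, h.of_smul hP (b := b) h3 (by simpa [hf.lt_det]) fun ⟨c, hc⟩ => (hN a ha).2
    ((hf.lt_eq_smul_iff.1 hc a (by simp [ha])).trans (hf.lt_eq_smul_iff.1 hc 1 (by simp [hk, Multiset.mem_replicate])).symm),
    h3, h2, finrank_ker_of_typ h1 h2⟩

theorem ElSL.exists_two (h : ElSL r P) (hP : ∀ f (c : F), c ≠ 0 → P f → P (c • f)) (hq : r ∣ Nat.card F - 1)
    {k : ℕ} (hk : k ≠ 0) (hV : finrank F V = k + 2) : ∃ (f : End F V) (ω : F), orderOf ω = r ∧ P f ∧ f ^ r = 1 ∧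
      typ f = .replicate k (X - C 1) + lt {ω, ω⁻¹} ∧ finrank F (ker (f - 1)) = k := by
  obtain ⟨ω, h0, h1⟩ := exists_orderOf_eq (K := F) hq
  have h2 : ω ≠ 1 := by rintro rfl; exact hr.out.ne_one (by simp [← h1])
  obtain ⟨f, hf⟩ := h.exists_diag hP (N := {ω, ω⁻¹}) (by simp [← h1, h2]) (by simp) hk hV (b := 1) (by simp [h0])
  exact ⟨f, ω, h1, hf⟩

theorem ElSL.exists_one (h : ElSL r P) (hP : ∀ f (c : F), c ≠ 0 → P f → P (c • f)) {k : ℕ} (hk : k ≠ 0)
    (hV : finrank F V = k + 1) (hq : padicValNat r (k + 1) < padicValNat r (Nat.card F - 1)) :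
    ∃ f, P f ∧ finrank F (ker (f - 1)) = k := by
  obtain ⟨ω, h0, h1⟩ := exists_orderOf_eq (K := F) (dvd_of_one_le_padicValNat (p := r) (n := Nat.card F - 1) (by omega))
  have h2 : ω ≠ 1 := by rintro rfl; exact hr.out.ne_one (by simp [← h1])
  obtain ⟨b, hb⟩ := (exists_pow_eq_iff_padic (x := Units.mk0 ω h0) (r := r) (k := 1) (by rw [← orderOf_units]; simpa)
    k.succ_ne_zero).2 (.inr (by rw [Nat.card_units, add_comm]; exact hq))
  obtain ⟨f, hf⟩ := h.exists_diag hP (N := {ω⁻¹}) (by simp [← h1, h2]) (by simp) hk hV (b := b)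
    (by simp [hV, ← Units.val_pow_eq_pow_val, hb, h0])
  exact ⟨f, hf.1, hf.2.2.2⟩

omit [Finite F] in
theorem ElSL.exists_tv (h : ElSL r P) (h0 : (r : F) = 0) {k : ℕ} (hV : finrank F V = k + 2) :
    ∃ f, P f ∧ typ f = jt 1 (2 ::ₘ .replicate k 1) ∧ finrank F (ker (f - 1)) = k + 1 := by
  obtain ⟨f, h1, -, h2⟩ := h.exists_jt h0 (a := 2) (k := k) le_rfl hr.out.two_le (by omega)
  have h3 : ∀ a ∈ 2 ::ₘ .replicate k 1, 0 < a := by simp [Multiset.mem_replicate]
  exact ⟨f, h1, h2.typ_eq (jt_pp _ h3), one_smul F (1 : End F V) ▸ (h2.jt_finrank_ker_one h3).trans (by simp)⟩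

theorem charpoly_eq_of_orderOf (h0 : (r : F) ≠ 0) (h2 : r ≠ 2) (hq : orderOf (Nat.card F : ZMod r) = r - 1)
    (hV : finrank F V = r) (hf : f ^ r = 1) (h1 : ¬ ∃ c : F, f = c • 1) : f.charpoly = X ^ r - 1 := by
  obtain ⟨k, ν, h3, h4⟩ := exists_typ_RF h0 hf
  have h5 := (blocks_typ f).finrank_eq
  have h6 := hr.out.two_le
  rw [h4, map_natDegree_RF hr.out h3, hq, hV] at h5
  obtain ⟨φ, rfl⟩ : ∃ φ, ν = {φ} := Multiset.card_eq_one.1 (by
    rcases h7 : ν.card with _ | _ | m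
    · rw [Multiset.card_eq_zero.1 h7, add_zero, ← lt_replicate] at h4
      exact absurd ⟨1, (h4 ▸ blocks_typ f).lt_eq_smul_iff.2 fun _ => Multiset.eq_of_mem_replicate⟩ h1
    · rfl
    · simp [h7, add_mul] at h5; omega)
  obtain rfl : k = 1 := by simp at h5; omega
  obtain ⟨h7, h8, h9, h10⟩ := h3 φ (by simp)
  refine (eq_of_monic_of_dvd_of_natDegree_le f.charpoly_monic (monic_X_pow_sub_C 1 hr.out.ne_zero) ?_ (by
    rw [f.charpoly_natDegree, hV, natDegree_X_pow_sub_C])).symm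
  simpa [(blocks_typ f).charpoly_eq, h4] using (isCoprime_of_ne (monic_X_sub_C 1) (irreducible_X_sub_C 1) h7 h8 h10.symm).mul_dvd
    (by simp [dvd_iff_isRoot, -map_one]) h9

end Bad

section Semi

variable {K : Type*} [Field K] [Algebra F K] [Module K (ι → F)] [IsScalarTower F K (ι → F)]

theorem scalars_le_semiGL : scalars ι F ≤ semiGL K := fun g hg => by
  obtain ⟨c, hc⟩ := (mem_scalars_iff g).1 hg
  exact mem_semiGL_of_linear fun κ x => by simp only [hc, smul_mulVec, one_mulVec, smul_comm κ]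

theorem Into.dvd_or_le (hk : (finrank F K).Prime) (h : Into (semiGL (ι := ι) (F := F) K) f) :
    finrank F K ∣ finrank F (ker (f - 1)) ∨ 2 * finrank F (ker (f - 1)) ≤ finrank F V := by
  obtain ⟨x, h1, h2⟩ := h
  rw [← h2.sub_one.finrank_ker, ← h2.finrank_eq]
  set E := ker (toLin' x.1 - 1)
  have hE : ∀ v, v ∈ E ↔ x.1 *ᵥ v = v := fun v => by simp [E, sub_eq_zero]
  let S : Subalgebra F K :=
    { carrier := {l | ∀ v ∈ E, l • v ∈ E}
      mul_mem' := fun ha hb v hv => by rw [mul_smul]; exact ha _ (hb v hv)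
      add_mem' := fun ha hb v hv => by rw [add_smul]; exact E.add_mem (ha v hv) (hb v hv)
      algebraMap_mem' := fun c v hv => by rw [algebraMap_smul]; exact E.smul_mem c hv }
  rcases (Subalgebra.isSimpleOrder_of_finrank_prime F K hk).eq_bot_or_eq_top S with hS | hS
  · obtain ⟨κ, hκ⟩ := exists_notMem_range hk.two_le
    obtain ⟨κ', h3⟩ := h1.1 κ
    have h4 : κ ≠ κ' := by
      rintro rfl
      exact (Algebra.mem_bot.1 (hS.le fun v hv => (hE _).2 (by rw [h3, (hE v).1 hv]))).elim hκ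
    have h5 : κ ≠ 0 := fun e => hκ 0 (by simp [e])
    have h6 := Submodule.finrank_add_finrank_le_of_disjoint (s := E) (t := E.map (ksm κ))
      (Submodule.disjoint_def.2 (by
        rintro _ h6 ⟨v, hv, rfl⟩
        have := (hE _).1 h6
        rw [ksm_apply, h3, (hE v).1 hv] at this
        by_contra h7
        exact h4 (smul_left_injective K (by rintro rfl; simp at h7) this).symm))
    rw [← (Submodule.equivMapOfInjective _ (smul_right_injective _ h5) E).finrank_eq] at h6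
    exact .inr (by omega)
  · let E' : Submodule K (ι → F) := { E.toAddSubmonoid with smul_mem' := fun l v hv => hS.ge trivial v hv }
    exact .inl ⟨_, (finrank_mul_finrank F K E').symm⟩

variable [Finite F] [Finite K]

theorem into_semi [Module K W] [IsScalarTower F K W] [Module.Finite F W] (hW : finrank F W = Fintype.card ι) {g : End F W}
    (hg : IsUnit g) (h : ∀ κ : K, ∃ κ' : K, ∀ w, g (κ • w) = κ' • g w) : Into (semiGL (ι := ι) (F := F) K) g := by
  have := Module.Finite.of_restrictScalars_finite F K W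
  have := Module.Finite.of_restrictScalars_finite F K (ι → F)
  let e : W ≃ₗ[K] (ι → F) := .ofFinrankEq _ _ (Nat.eq_of_mul_eq_mul_left (finrank_pos (R := F) (M := K))
    (by simp [finrank_mul_finrank, hW]))
  refine .of ((sim_conj (e.restrictScalars F) g).isUnit_iff.1 hg) (sim_conj _ g).symm fun x hx =>
    mem_semiGL_of_forall fun κ => (h κ).imp fun κ' h v => ?_
  simp [← toLin'_apply, hx, h]

theorem exists_frob (hn : finrank F K = Fintype.card ι) :
    ∃ τ : End F K, Into (semiGL (ι := ι) (F := F) K) τ ∧ τ ^ finrank F K = 1 ∧ Blocks τ {X ^ finrank F K - 1} := by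
  have := Fintype.ofFinite F
  have h1 := FiniteField.minpoly_frobeniusAlgHom F K
  have h2 := minpoly.aeval F (FiniteField.frobeniusAlgHom F K).toLinearMap
  rw [h1, map_sub, map_pow, aeval_X, map_one, sub_eq_zero] at h2
  exact ⟨_, into_semi hn (.of_pow_eq_one h2 finrank_pos.ne') fun κ => ⟨_, map_mul (FiniteField.frobeniusAlgHom F K) κ⟩, h2,
    h1 ▸ blocks_of_minpoly (by rw [h1, ← C_1, natDegree_X_pow_sub_C])⟩

theorem into_semi_of_charpoly [Module.Finite F V] (hn : finrank F K = Fintype.card ι) (hr : finrank F K = r) (h0 : (r : F) ≠ 0)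
    (h1 : f ^ r = 1) (h2 : f.charpoly = X ^ r - 1) : Into (semiGL (ι := ι) (F := F) K) f := by
  obtain ⟨τ, h3, h4, h5⟩ := exists_frob hn
  subst hr
  exact h3.sim (sim_of_charpoly_eq (isSemisimple_of_pow_eq h0 one_ne_zero (h4.trans (one_smul F _).symm))
    (isSemisimple_of_pow_eq h0 one_ne_zero (h1.trans (one_smul F _).symm)) (by simp [h5.charpoly_eq, h2]))

theorem into_semi_of_kummer [Module.Finite F V] (hk : finrank F K = 2) (hV : finrank F V = Fintype.card ι) {z : F}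
    (hz : ∀ b, b ^ 2 ≠ z) (h : f ^ 2 = z • 1) : Into (semiGL (ι := ι) (F := F) K) f := by
  have := Fintype.ofFinite F
  have := Fintype.ofFinite K
  obtain ⟨κ, hκ⟩ := Fx.exists_sq (F₀ := (algebraMap F K).fieldRange) (by
    rw [← Nat.card_congr (algebraMap F K).rangeRestrictFieldEquiv.toEquiv, ← hk, Nat.card_eq_fintype_card,
      Nat.card_eq_fintype_card, card_eq_pow_finrank (K := F)]) ⟨_, z, rfl⟩
  have h1 : (ksm κ : End F (ι → F)) ^ 2 = z • 1 := LinearMap.ext fun v =>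
    (smul_smul κ κ v).trans (by rw [← pow_two, hκ]; exact algebraMap_smul K z v)
  obtain ⟨k, h2, h3, -⟩ := typ_of_kummer Nat.prime_two hz h
  obtain ⟨l, h4, h5, -⟩ := typ_of_kummer Nat.prime_two hz h1
  refine (into_semi (by simp) ((isUnit_pow_iff two_ne_zero).1 (h1 ▸ isUnit_one.smul (Units.mk0 z (by
    rintro rfl; exact hz 0 (by simp))))) fun a => ⟨a, fun v => smul_comm _ _ _⟩).sim (sim_iff_typ_eq.2 ?_)
  rw [h3, h5, show k = l by simp at h4; omega]

end Semi

section Tens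

variable {a b : ℕ} {e : ι ≃ Fin a × Fin b} {P : GL ι F}

theorem into_tens_iff : Into (tensorProductSubgroup a b e P) f ↔
    ∃ (A : GL (Fin a) F) (B : GL (Fin b) F), Sim (toLin' (A.1 ⊗ₖ B.1)) f := by
  have h : ∀ y : GL (Fin a × Fin b) F, Sim (toLin' y.1) (toLin' (P * glReindex e.symm y * P⁻¹).1) := fun y =>
    (sim_reindex e.symm y.1).symm.trans (gl_isConj_iff_sim.1 (isConj_iff.2 ⟨P, rfl⟩ : IsConj (glReindex e.symm y) _))
  exact ⟨fun ⟨_, ⟨_, ⟨y, ⟨A, B, h1⟩, rfl⟩, rfl⟩, h2⟩ => ⟨A, B, h1 ▸ (h y).trans h2⟩, fun ⟨A, B, h1⟩ =>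
    ⟨_, ⟨_, ⟨A.kronecker B, ⟨A, B, rfl⟩, rfl⟩, rfl⟩, (h _).symm.trans h1⟩⟩

theorem Into.tens_smul (h : Into (tensorProductSubgroup a b e P) f) {c : F} (hc : c ≠ 0) :
    Into (tensorProductSubgroup a b e P) (c • f) :=
  let ⟨A, B, h⟩ := into_tens_iff.1 h
  into_tens_iff.2 ⟨scGL _ (.mk0 c hc) * A, B, by simpa [coe_scGL, smul_kronecker] using h.smul c⟩

theorem typ_one_kronecker (B : Matrix (Fin b) (Fin b) F) :
    typ (toLin' ((1 : Matrix (Fin a) (Fin a) F) ⊗ₖ B)) = a • typ (toLin' B) := by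
  rw [Sim.typ_eq (g := piMap fun _ : Fin a => toLin' B) ⟨.curry F F _ _, fun v => by
    ext i j; simp [mulVec, dotProduct, Fintype.sum_prod_type, one_apply]⟩, typ_piMap]
  simp

theorem Into.tens_cases [Module.Finite F V] (h : Into (tensorProductSubgroup a b e P) f) (hb : b ≠ 0) :
    (∃ μ, typ f = a • μ) ∨ b + finrank F (ker (f - 1)) ≤ finrank F V ∧ ∃ g : End F (Fin a → F), (¬ ∃ c : F, g = c • 1) ∧
      (f ^ r = 1 → ∃ z : F, z ≠ 0 ∧ g ^ r = z • 1) := by
  obtain ⟨A, B, h⟩ := into_tens_iff.1 h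
  by_cases h1 : ∃ c : F, toLin' A.1 = c • 1
  · obtain ⟨c, hc⟩ := h1
    exact .inl ⟨_, by rw [← h.typ_eq, toLin'_eq_smul_one_iff.1 hc, smul_kronecker, ← kronecker_smul, typ_one_kronecker]⟩
  refine .inr ⟨?_, _, h1, fun h2 => ?_⟩
  · obtain ⟨v, hv⟩ := not_forall.1 (mt exists_eq_smul_id_of_forall_notLinearIndependent h1)
    obtain ⟨φ, hφ⟩ := exists_dot_eq_of_linearIndependent (not_not.1 hv) ![0, 1]
    have h2 : ctl φ ∘ₗ (toLin' (A.1 ⊗ₖ B.1) - 1) ∘ₗ tensR v = toLin' B.1 := LinearMap.ext fun w => by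
      simpa [tensR, kron_mulVec_tens, ctl_tens, show φ ⬝ᵥ v = 0 from hφ 0] using congrArg (· • B.1 *ᵥ w) (hφ 1)
    rw [← (f - 1).finrank_range_add_finrank_ker, ← h.sub_one.finrank_range, add_le_add_iff_right]
    have h3 : finrank F (range (toLin' B.1)) = _ :=
      finrank_range_of_inj (ker_eq_bot.1 ((isUnit_iff_ker_eq_bot _).1 (B.isUnit.map toLinAlgEquiv')))
    rw [← h2, range_comp, finrank_fin_fun] at h3
    exact h3.ge.trans ((Submodule.finrank_map_le _ _).trans (Submodule.finrank_mono (range_comp_le_range _ _)))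
  · have h3 := h.pow_eq_smul_one_iff.2 (h2.trans (one_smul F _).symm)
    have h4 : ∀ k, (A.1 ⊗ₖ B.1) ^ k = (A ^ k).1 ⊗ₖ (B ^ k).1 := fun k => by
      induction k with
      | zero => simp
      | succ k ih => rw [pow_succ, ih, ← mul_kronecker_mul, pow_succ, pow_succ]; rfl
    rw [← toLin'_pow', toLin'_eq_smul_one_iff, h4, one_smul] at h3
    have h5 : ∀ i j, (A ^ r).1 i j * (B ^ r).1 ⟨0, by omega⟩ ⟨0, by omega⟩ = (1 : Matrix _ _ F) i j := fun i j => by
      simpa [one_apply] using congrFun₂ h3 (i, ⟨0, by omega⟩) (j, ⟨0, by omega⟩)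
    have := Fin.pos_iff_nonempty.1 (Nat.pos_of_ne_zero (by rintro rfl; exact h1 ⟨0, Subsingleton.elim _ _⟩) : 0 < a)
    have h6 := right_ne_zero_of_mul (((h5 (Classical.arbitrary _) _).trans (one_apply_eq _)).trans_ne one_ne_zero)
    refine ⟨_, inv_ne_zero h6, ?_⟩
    rw [← toLin'_pow', toLin'_eq_smul_one_iff]
    ext i j
    exact (eq_mul_inv_iff_mul_eq₀ h6).2 (h5 i j) |>.trans (mul_comm _ _)

end Tens

end Cfsg.Lib.GLC
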