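import Cfsg.Agent.Lib.GLC.IntoF
import Cfsg.Agent.Lib.GLC.Jordan

/-!
Elements of prime order of `PSL` with a conjugate in a subfield subgroup.
-/

set_option autoImplicit false

namespace Cfsg.Lib.GLC

open Module Polynomial LinearMap Matrix Cfsg.Lib.Symp Cfsg.Geo Cfsg.Lib.Asch Nilp

theorem val_pow_sub_one_eq {r x k : ℕ} [hr : Fact r.Prime] (hx : 1 < x) (h : r ∣ x - 1) (hk : ¬ r ∣ k) :
    padicValNat r (x ^ k - 1) = padicValNat r (x - 1) := by
  obtain ⟨y, rfl⟩ : ∃ y, x = y + 1 := ⟨x - 1, by omega⟩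
  have h1 : ¬ r ∣ ∑ i ∈ .range k, (y + 1) ^ i := by
    rw [← ZMod.natCast_eq_zero_iff] at h hk ⊢
    simpa [show (y : ZMod r) = 0 from h]
  rw [← geom_sum_mul_add, Nat.add_sub_cancel, padicValNat.mul (by rintro e; simp [e] at h1) (by omega),
    padicValNat.eq_zero_of_not_dvd h1, zero_add, Nat.add_sub_cancel]

theorem val_prod_le {r : ℕ} [Fact r.Prime] {f g : ℕ → ℕ} (h0 : ∀ i, f i ≠ 0 ∧ g i ≠ 0) {n : ℕ}
    (h : ∀ i < n, padicValNat r (f i) ≤ padicValNat r (g i)) :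
    padicValNat r (∏ i ∈ .range n, f i) ≤ padicValNat r (∏ i ∈ .range n, g i) := by
  induction n with
  | zero => simp
  | succ n ih =>
    rw [Finset.prod_range_succ, Finset.prod_range_succ, padicValNat.mul (Finset.prod_ne_zero_iff.2 fun i _ => (h0 i).1) (h0 n).1,
      padicValNat.mul (Finset.prod_ne_zero_iff.2 fun i _ => (h0 i).2) (h0 n).2]
    exact add_le_add (ih fun i hi => h i (by omega)) (h n (by omega))

variable {F V : Type*} [Field F] [AddCommGroup V] [Module F V] {r : ℕ}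
  {ι : Type} [Fintype ι] [DecidableEq ι] {F₀ : Subfield F} {σ : F →+* F} {f : End F V}

theorem isSquare_det_of_commute [Module.Finite F V] {N a : End F V} (h : range N = ker N) (ha : Commute a N) :
    IsSquare (LinearMap.det a) :=
  have h1 : ∀ v ∈ ker N, a v ∈ ker N := fun v hv => by
    rw [mem_ker, ← End.mul_apply, ← ha, End.mul_apply, mem_ker.1 hv, map_zero]
  ⟨_, det_eq_of_exact (a := a.restrict h1) (c := a.restrict h1) (π := N.codRestrict _ fun v => h.le ⟨v, rfl⟩)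
    (ker N).injective_subtype (fun v => (h.ge v.2).imp fun _ => Subtype.ext) (by simp) (fun _ => rfl)
    fun v => Subtype.ext (LinearMap.congr_fun ha v).symm⟩

theorem mem_sub_iff {g : GL ι F} :
    g ∈ subfieldSubgroup F₀ 1 ↔ ∃ c : F, c ≠ 0 ∧ ∃ A : Matrix ι ι F₀, A.map F₀.subtype = c • g.1 := by
  simp only [mem_subfieldSubgroup_iff, inv_one, cj, Units.val_one, one_mul, mul_one]
  exact exists_congr fun c => and_congr_right' ⟨Rat.exists_map, fun ⟨A, h⟩ i j => h ▸ (A i j).2⟩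

theorem scalars_le_sub : scalars ι F ≤ subfieldSubgroup F₀ 1 := fun g hg => by
  obtain ⟨c, hc⟩ := (mem_scalars_iff g).1 hg
  exact mem_sub_iff.2 ⟨_, c⁻¹.ne_zero, 1, by simp [hc, smul_smul]⟩

theorem map_mem_sub (g : GL ι F₀) : GeneralLinearGroup.map F₀.subtype g ∈ subfieldSubgroup F₀ 1 :=
  mem_sub_iff.2 ⟨1, one_ne_zero, g.1, (one_smul _ _).symm⟩

theorem into_sub {A : Matrix ι ι F₀} (hf : IsUnit f) (h : Sim (toLin' (A.map F₀.subtype)) f) :
    Into (subfieldSubgroup F₀ (1 : GL ι F)) f := .of (h.isUnit_iff.2 hf) h fun _ hx =>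
  mem_sub_iff.2 ⟨1, one_ne_zero, A, by rw [one_smul, toLin'.injective hx]⟩

theorem exists_jt_map {K : Type*} [Field K] (φ : K →+* F) {d : Multiset ℕ} (h : d.sum = Fintype.card ι) :
    ∃ A : Matrix ι ι K, Blocks (toLin' A) (jt 1 d) ∧ Blocks (toLin' (A.map φ)) (jt 1 d) := by
  obtain ⟨m, v, rfl⟩ := exists_fin_map_eq d
  have e : ((k : Fin m) × Fin (v k)) ≃ ι := Fintype.equivOfCardEq (by rw [← h]; simp [List.sum_ofFn])
  refine ⟨_, (sim_reindex e _).blocks (blocks_jordanTypeMatrix v), ?_⟩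
  convert (sim_reindex e _).blocks (blocks_jordanTypeMatrix (F := F) v)
  rw [jordanTypeMatrix, jordanTypeMatrix, reindex_apply, reindex_apply, ← submatrix_map, blockDiagonal'_map _ _ φ.map_zero]
  congr
  ext k i j
  simp [jordanBlock, apply_ite φ]

theorem Sim.map {K : Type*} [Field K] (φ : K →+* F) {A B : Matrix ι ι K} (h : Sim (toLin' A) (toLin' B)) :
    Sim (toLin' (A.map φ)) (toLin' (B.map φ)) :=
  isConj_iff_sim.1 (φ.mapMatrix.toMonoidHom.map_isConj (isConj_iff_sim.2 h))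

/-- `σ` has fixed field `F₀`. -/
def Fx (F₀ : Subfield F) (σ : F →+* F) : Prop := ∀ a, σ a = a ↔ a ∈ F₀

theorem Fx.map_map (h : Fx F₀ σ) (P : F₀[X]) : (P.map F₀.subtype).map σ = P.map F₀.subtype := by
  rw [Polynomial.map_map]
  congr 1
  exact RingHom.ext fun a => (h a).2 a.2

theorem Fx.exists_map (h : Fx F₀ σ) {P : F[X]} (hP : P.Monic) (h1 : P.map σ = P) :
    ∃ Q : F₀[X], Q.map F₀.subtype = P ∧ Q.natDegree = P.natDegree ∧ Q.Monic :=
  lifts_and_natDegree_eq_and_monic ((lifts_iff_coeff_lifts P).2 fun n =>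
    ⟨⟨_, (h _).1 ((coeff_map σ n).symm.trans (congrArg (coeff · n) h1))⟩, rfl⟩) hP

theorem Fx.of_into (h : Fx F₀ σ) [Module.Finite F V] (hf : Into (subfieldSubgroup F₀ (1 : GL ι F)) f) :
    ∃ c : F, c ≠ 0 ∧ (c • f).charpoly.map σ = (c • f).charpoly ∧ (σ c = c → f.charpoly.map σ = f.charpoly) ∧
      ∀ (k : ℕ) (z : F), Nonempty ι → f ^ k = z • 1 → σ (c ^ k * z) = c ^ k * z := by
  obtain ⟨x, h1, h2⟩ := hf
  obtain ⟨c, hc, A, hA⟩ := mem_sub_iff.1 h1
  refine ⟨c, hc, ?_, fun h3 => ?_, fun k z ⟨i⟩ h3 => (h _).2 ?_⟩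
  · rw [← (h2.smul c).charpoly_eq, ← map_smul, charpoly_toLin', ← hA, charpoly_map, h.map_map]
  · have : x.1 = ((⟨c, (h c).1 h3⟩ : F₀)⁻¹ • A).map F₀.subtype := by
      rw [← inv_smul_smul₀ hc x.1, ← hA]; rfl
    rw [← h2.charpoly_eq, charpoly_toLin', this, charpoly_map, h.map_map]
  · rw [← h2.pow_eq_smul_one_iff, ← toLin'_pow', toLin'_eq_smul_one_iff] at h3
    have h4 : (A ^ k).map F₀.subtype = A.map F₀.subtype ^ k := F₀.subtype.mapMatrix.map_pow A k
    rw [hA, _root_.smul_pow, h3, smul_smul] at h4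
    have h5 : (((A ^ k) i i : F₀) : F) = c ^ k * z := by simpa using congrFun₂ h4 i i
    exact h5 ▸ ((A ^ k) i i).2

theorem Fx.into [Module.Finite F V] (h : Fx F₀ σ) (h0 : (r : F) ≠ 0) (hV : finrank F V = Fintype.card ι) (hf : f ^ r = 1)
    (h1 : f.charpoly.map σ = f.charpoly) : Into (subfieldSubgroup F₀ (1 : GL ι F)) f := by
  obtain ⟨Q, h2, h3, h4⟩ := h.exists_map f.charpoly_monic h1
  obtain ⟨g, h5, rfl⟩ := exists_isSemisimple (V := ι → F₀) h4 (by simpa [f.charpoly_natDegree, hV] using h3)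
  obtain ⟨A, rfl⟩ := toLin'.surjective g
  have h6 : A ^ r = 1 := toLin'.injective (by
    rw [toLin'_pow', toLin'_one]
    refine (blocks_typ _).pow_eq_one_iff.2 fun P hP => (isSemisimple_iff_typ.1 h5 P hP).prime.dvd_of_dvd_pow
      (n := (typ f).card) ((Multiset.dvd_prod hP).trans ?_)
    rw [← (blocks_typ _).charpoly_eq, ← map_dvd_map' F₀.subtype, h2, (blocks_typ f).charpoly_eq]
    simpa using Multiset.prod_dvd_prod_of_dvd id (fun _ => X ^ r - 1) ((blocks_typ f).pow_eq_one_iff.1 hf))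
  have h7 : toLin' (A.map F₀.subtype) ^ r = (1 : F) • 1 := by
    rw [← toLin'_pow', toLin'_eq_smul_one_iff, one_smul]
    exact (F₀.subtype.mapMatrix.map_pow A r).symm.trans (by rw [h6, map_one])
  refine into_sub (.of_pow_eq_one hf (by rintro rfl; simp at h0)) (sim_of_charpoly_eq (isSemisimple_of_pow_eq h0 one_ne_zero h7)
    (isSemisimple_of_pow_eq h0 one_ne_zero (hf.trans (one_smul F _).symm)) ?_)
  rw [← h2, charpoly_toLin', charpoly_toLin', charpoly_map]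

theorem charpoly_map_eq_iff [Module.Finite F V] {M : Multiset F} (h : Blocks f (lt M)) :
    f.charpoly.map σ = f.charpoly ↔ M.map σ = M := by
  have : ((lt M).prod).map σ = (lt (M.map σ)).prod := by simp [lt, Polynomial.map_multiset_prod]
  rw [h.charpoly_eq, this]
  exact ⟨fun e => lt_injective (eq_of_prod_eq (fun P hP => ⟨lt_monic _ P hP, lt_irreducible _ P hP⟩)
    (fun P hP => ⟨lt_monic _ P hP, lt_irreducible _ P hP⟩) e), fun e => by rw [e]⟩

variable [Finite F]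

theorem dvd_card_iff [hr : Fact r.Prime] : r ∣ Nat.card F ↔ (r : F) = 0 := by
  have := Fintype.ofFinite F
  have := CharP.char_is_prime F (ringChar F)
  rw [Nat.card_eq_fintype_card, ← prime_dvd_char_iff_dvd_card, ringChar.spec, Nat.prime_dvd_prime_iff_eq hr.out this,
    Nat.prime_dvd_prime_iff_eq this hr.out, eq_comm]

theorem exists_fx (F₀ : Subfield F) : ∃ σ : F →+* F, Fx F₀ σ ∧ ∀ a, σ a = a ^ Nat.card F₀ := by
  have := Fintype.ofFinite F₀
  refine ⟨FiniteField.frobeniusAlgHom F₀ F, fun a => ⟨fun h => ?_, fun h =>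
    (FiniteField.frobeniusAlgHom F₀ F).commutes ⟨a, h⟩⟩, by simp⟩
  rcases eq_or_ne a 0 with rfl | ha
  · exact F₀.zero_mem
  obtain ⟨c, rfl⟩ := (exists_eq_algebraMap_iff (F := F₀) ha).2 (mul_right_cancel₀ ha (by
    rw [← pow_succ, Nat.sub_add_cancel Nat.card_pos, one_mul]; simpa using h))
  exact c.2

theorem Fx.rf_map_eq_iff (h : Fx F₀ σ) (hr : r.Prime) {φ : F[X]} (hφ : RF r φ) :
    φ.map σ = φ ↔ orderOf (Nat.card F₀ : ZMod r) = orderOf (Nat.card F : ZMod r) := by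
  have h0 : (X ^ r - 1 : F₀[X]).map F₀.subtype = X ^ r - 1 := by simp
  refine ⟨fun e => ?_, fun e => ?_⟩
  · obtain ⟨Q, rfl, h1, h2⟩ := h.exists_map hφ.1 e
    rw [← hφ.natDegree_eq hr, ← h1, RF.natDegree_eq ⟨h2, h2.irreducible_of_irreducible_map _ _ hφ.2.1,
      (map_dvd_map' F₀.subtype).1 (h0 ▸ hφ.2.2.1), by rintro rfl; exact hφ.2.2.2 (by simp)⟩ hr]
  obtain ⟨μ, h1, h2⟩ := exists_prod_eq (F := F₀) (monic_X_pow_sub_C 1 hr.ne_zero)
  have h3 := hφ.2.2.1
  rw [← h0, ← C_1, ← h2, Polynomial.map_multiset_prod] at h3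
  obtain ⟨Q, h4, h5⟩ := hφ.2.1.prime.exists_mem_multiset_map_dvd h3
  have h6 : RF r Q := ⟨(h1 Q h4).1, (h1 Q h4).2, (Multiset.dvd_prod h4).trans (by simp [h2]), by
    rintro rfl
    exact hφ.2.2.2 (eq_of_monic_of_associated hφ.1 (monic_X_sub_C _)
      (hφ.2.1.associated_of_dvd (irreducible_X_sub_C _) (by simpa using h5)))⟩
  rw [← eq_of_monic_of_dvd_of_natDegree_le hφ.1 (h6.1.map _) h5 (by
    rw [natDegree_map, h6.natDegree_eq hr, hφ.natDegree_eq hr, e]), h.map_map]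

theorem exists_dvd_of_dvd_index [hr : Fact r.Prime] {n k : ℕ} (hn : n ≠ 0) (hk : Nat.card F = Nat.card F₀ ^ k) (h1 : ¬ r ∣ k)
    (h2 : ¬ r ∣ Nat.card F) (h : r ∣ (subfieldSubgroup F₀ 1).relIndex (specialLinear (Fin n) F)) :
    ∃ i, 2 ≤ i ∧ i ≤ n ∧ r ∣ Nat.card F ^ i - 1 ∧ ¬ r ∣ Nat.card F₀ ^ i - 1 := by
  obtain ⟨n, rfl⟩ := Nat.exists_eq_succ_of_ne_zero hn
  have h3 := mul_card_dvd (K := (specialLinear _ F₀).map (GeneralLinearGroup.map F₀.subtype)) h
    (by rintro _ ⟨g, -, rfl⟩; exact map_mem_sub g) (by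
      rintro _ ⟨g, hg, rfl⟩
      exact mem_sl_iff.2 ((F₀.subtype.map_det g.1).symm.trans (by rw [mem_sl_iff.1 hg, map_one])))
  rw [Subgroup.card_map_of_injective (fun a b e => Units.ext (map_injective F₀.subtype.injective (congrArg Units.val e))),
    card_specialLinear, card_specialLinear] at h3
  have h4 := val_lt_of_dvd h3 Nat.card_pos.ne'
  have h5 : ∀ q i, 1 < q → q ^ (i + 2) - 1 ≠ 0 := fun q i hq => Nat.sub_ne_zero_of_lt (Nat.one_lt_pow (by simp) hq)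
  have h6 : 1 < Nat.card F := Finite.one_lt_card
  have h7 : 1 < Nat.card F₀ := Finite.one_lt_card
  rw [card_SL_eq, card_SL_eq, padicValNat.mul (by positivity) (Finset.prod_ne_zero_iff.2 fun i _ => h5 _ i h7),
    padicValNat.mul (by positivity) (Finset.prod_ne_zero_iff.2 fun i _ => h5 _ i h6),
    padicValNat.eq_zero_of_not_dvd (mt hr.out.dvd_of_dvd_pow h2)] at h4
  by_contra! h8
  refine absurd (val_prod_le (fun i => ⟨h5 _ i h6, h5 _ i h7⟩) fun i hi => ?_) (by omega :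
    ¬ padicValNat r (∏ i ∈ .range n, (Nat.card F ^ (i + 2) - 1)) ≤ padicValNat r (∏ i ∈ .range n, (Nat.card F₀ ^ (i + 2) - 1)))
  by_cases h9 : r ∣ Nat.card F ^ (i + 2) - 1
  · rw [hk, ← pow_mul, mul_comm, pow_mul, val_pow_sub_one_eq (Nat.one_lt_pow (by simp) h7) (h8 _ (by omega) (by omega) h9) h1]
  · simp [padicValNat.eq_zero_of_not_dvd h9]

theorem Fx.exists_sq (h : Nat.card F = Nat.card F₀ ^ 2) (a : F₀) : ∃ b : F, b ^ 2 = a := by
  obtain ⟨σ, h1, h2⟩ := exists_fx F₀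
  rcases (Nat.card F₀).even_or_odd' with ⟨m, hm | hm⟩
  · exact exists_pow_eq_of_not_dvd Nat.prime_two (by
      have := Nat.card_pos (α := F)
      have h3 : Nat.card F = 4 * (m * m) := by rw [h, hm]; ring
      omega) _
  obtain ⟨x, hx⟩ := Unitary.IsBar.exists_norm_eq ⟨inferInstance, h, h2⟩ ((h1 a).2 a.2)
  exact ⟨x ^ (m + 1), by rw [← hx, h2, hm]; ring⟩

end Cfsg.Lib.GLC
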